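import Cfsg.Agent.Lib.TC.G.He
import Cfsg.Agent.Lib.TC.Simple

set_option autoImplicit false

namespace Cfsg.Agent.Lib.TC.Data.HeS2

open Cfsg.Agent.Lib.TC

noncomputable def aE_0_0 (k : ℕ) : ℕ := Nat.land (Nat.shiftRight (nat_lit 0x934545401c824a19) (Nat.mul (Nat.land k (nat_lit 255)) (nat_lit 6))) (nat_lit 63)
noncomputable def aE (k : ℕ) : ℕ := Bool.rec (nat_lit 0) (aE_0_0 k) (Nat.blt k (nat_lit 256))

noncomputable def aR_0_0 (k : ℕ) : ℕ := Nat.land (Nat.shiftRight (nat_lit 0xe330d0328c03002619062180400) (Nat.mul (Nat.land k (nat_lit 255)) (nat_lit 10))) (nat_lit 1023)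
noncomputable def aR (k : ℕ) : ℕ := Bool.rec (nat_lit 0) (aR_0_0 k) (Nat.blt k (nat_lit 256))

noncomputable def aK_0_0 (k : ℕ) : ℕ := Nat.land (Nat.shiftRight (nat_lit 0x0) (Nat.mul (Nat.land k (nat_lit 255)) (nat_lit 1))) (nat_lit 1)
noncomputable def aK (k : ℕ) : ℕ := Bool.rec (nat_lit 0) (aK_0_0 k) (Nat.blt k (nat_lit 256))

noncomputable def aT_0_0 (k : ℕ) : ℕ := Nat.land (Nat.shiftRight (nat_lit 0x3c1) (Nat.mul (Nat.land k (nat_lit 255)) (nat_lit 1))) (nat_lit 1)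
noncomputable def aT (k : ℕ) : ℕ := Bool.rec (nat_lit 0) (aT_0_0 k) (Nat.blt k (nat_lit 256))

noncomputable def aN_0_0 (k : ℕ) : ℕ := Nat.land (Nat.shiftRight (nat_lit 0x4) (Nat.mul (Nat.land k (nat_lit 255)) (nat_lit 2))) (nat_lit 3)
noncomputable def aN (k : ℕ) : ℕ := Bool.rec (nat_lit 0) (aN_0_0 k) (Nat.blt k (nat_lit 256))

noncomputable def tT (i g : ℕ) : ℕ := aT (Nat.add (Nat.mul i (nat_lit 5)) g)

def words : List (List ℕ) := [[0,0],[1,1],[2,2],[3,3],[4,4],[0,1,0,1],[0,3,0,3],[0,4,0,4],[0,2,0,2],[1,3,1,3,1,3],[1,4,1,4,1,4],[1,2,1,2,1,2],[3,4,3,4,3,4,3,4],[3,2,3,2],[4,2,4,2],[2,4,3,4,3],[1],[2],[3],[4]]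

noncomputable def Fk (k : ℕ) : Bool := checkKey (nat_lit 6) (nat_lit 5) (nat_lit 2) (nat_lit 3) aE (wordAt words) (nat_lit 16) (nat_lit 20) aR aK (nat_lit 12) (nat_lit 4) (nat_lit 15) (nat_lit 5) (nat_lit 31) k

noncomputable def cert : Cert where
  sz := 6
  ep := 5
  b := 2
  m := 3
  E := aE
  W := wordAt words
  nrel := 16
  nW := 20
  K := 256
  R := aR
  pk := aK
  fuel := 12
  bp := 4
  mp := 15
  bw := 5
  mw := 31

noncomputable def Fp (i : ℕ) : Bool := ptFin2 (nat_lit 2) (nat_lit 5) tT aN (nat_lit 6) (nat_lit 5) (nat_lit 2) (nat_lit 3) aE (nat_lit 12) i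

end Cfsg.Agent.Lib.TC.Data.HeS2
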